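import Mathlib
import Cfsg.Agent.Lib.Helper51.TI3.Defs

/-!
# S3117 package QB2 (helper62 for helper51)

`lemBound2 : LemK → LemBound2`: a quadratic map `sq : W → T` with `|T| = 2` and at most two
zeros has `|W| ≤ 8`.

Proof.  If `|W| ≥ 9`, pick `u₁` outside the zero set `Z` (`|Z| ≤ 2`), then `u₂` outside
`Z ∪ u₁ Z`, then `u₃` outside `Z ∪ u₁ Z ∪ u₂ Z ∪ u₁ u₂ Z` (at most 8 elements).  Then `sq` is
non-trivial on the seven products of `u₁, u₂, u₃`, hence equal there to the unique non-identity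
element of `T`, which contradicts `LemK` (with `a = b`).
-/

set_option autoImplicit false

universe u v

namespace Cfsg.Agent.Lib.Helper62.TI3

open Cfsg.Agent.Lib.Helper51.TI3

/-- In a group with two elements, two non-identity elements are equal. -/
theorem eq_of_ne_one_of_card_two {T : Type v} [Group T] (hT2 : Nat.card T = 2) {s t : T}
    (hs : s ≠ 1) (ht : t ≠ 1) : s = t := by
  obtain ⟨x, y, hxy, huniv⟩ := Nat.card_eq_two_iff.mp hT2
  have h : ∀ z : T, z = x ∨ z = y := by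
    intro z
    have hz : z ∈ ({x, y} : Set T) := by rw [huniv]; exact Set.mem_univ z
    simpa using hz
  rcases h 1 with h1 | h1 <;> rcases h s with h2 | h2 <;> rcases h t with h3 | h3
  · exact absurd (h2.trans h1.symm) hs
  · exact absurd (h2.trans h1.symm) hs
  · exact absurd (h3.trans h1.symm) ht
  · exact h2.trans h3.symm
  · exact h2.trans h3.symm
  · exact absurd (h3.trans h1.symm) ht
  · exact absurd (h2.trans h1.symm) hs
  · exact absurd (h2.trans h1.symm) hs

/-- A finset smaller than the whole type misses a point. -/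
theorem exists_notMem_of_card_lt {W : Type u} [Fintype W] (B : Finset W)
    (h : B.card < Fintype.card W) : ∃ x : W, x ∉ B := by
  by_contra hcon
  push Not at hcon
  have hB : B = Finset.univ := Finset.eq_univ_iff_forall.mpr hcon
  rw [hB, Finset.card_univ] at h
  exact lt_irrefl _ h

/-- (QB2) target of order 2 and at most two zeros: `|W| ≤ 8`. -/
theorem lemBound2 (hK : LemK.{u, v}) : LemBound2.{u, v} := by
  intro W T _ _ _ _ Q hT2 hZ
  classical
  by_contra hcard
  have hcard' : 8 < Nat.card W := not_le.mp hcard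
  have := Fintype.ofFinite W
  rw [Nat.card_eq_fintype_card] at hcard'
  obtain ⟨Z, hZdef⟩ : ∃ Z : Finset W, Z = Finset.univ.filter (fun w => Q.sq w = 1) := ⟨_, rfl⟩
  have hZmem : ∀ w : W, Q.sq w = 1 → w ∈ Z := by
    intro w hw
    rw [hZdef]
    simp [hw]
  have hZc : Z.card ≤ 2 := by
    rw [hZdef, ← Fintype.card_subtype, ← Nat.card_eq_fintype_card]
    exact hZ
  -- translates of the zero set
  have htr : ∀ c : W, (Z.image (fun z => c * z)).card ≤ 2 :=
    fun c => le_trans Finset.card_image_le hZc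
  have htr' : ∀ c x : W, x ∉ Z.image (fun z => c * z) → Q.sq (c * x) ≠ 1 := by
    intro c x hx hsq
    apply hx
    rw [Finset.mem_image]
    refine ⟨c * x, hZmem _ hsq, ?_⟩
    rw [← mul_assoc, Q.hW c, one_mul]
  have hZ' : ∀ x : W, x ∉ Z → Q.sq x ≠ 1 := fun x hx hsq => hx (hZmem x hsq)
  -- choose u₁
  obtain ⟨u₁, hu₁⟩ := exists_notMem_of_card_lt Z (by omega)
  -- choose u₂
  obtain ⟨u₂, hu₂⟩ := exists_notMem_of_card_lt (Z ∪ Z.image (fun z => u₁ * z)) (by
    have h1 := Finset.card_union_le Z (Z.image (fun z => u₁ * z))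
    have h2 := htr u₁
    omega)
  -- choose u₃
  obtain ⟨u₃, hu₃⟩ := exists_notMem_of_card_lt
    (Z ∪ Z.image (fun z => u₁ * z) ∪ Z.image (fun z => u₂ * z) ∪
      Z.image (fun z => u₁ * u₂ * z)) (by
    have h1 := Finset.card_union_le (Z ∪ Z.image (fun z => u₁ * z) ∪ Z.image (fun z => u₂ * z))
      (Z.image (fun z => u₁ * u₂ * z))
    have h2 := Finset.card_union_le (Z ∪ Z.image (fun z => u₁ * z)) (Z.image (fun z => u₂ * z))
    have h3 := Finset.card_union_le Z (Z.image (fun z => u₁ * z))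
    have h4 := htr u₁
    have h5 := htr u₂
    have h6 := htr (u₁ * u₂)
    omega)
  simp only [Finset.mem_union, not_or] at hu₂ hu₃
  have s1 : Q.sq u₁ ≠ 1 := hZ' _ hu₁
  have s2 : Q.sq u₂ ≠ 1 := hZ' _ hu₂.1
  have s3 : Q.sq u₃ ≠ 1 := hZ' _ hu₃.1.1.1
  have s12 : Q.sq (u₁ * u₂) ≠ 1 := htr' _ _ hu₂.2
  have s13 : Q.sq (u₁ * u₃) ≠ 1 := htr' _ _ hu₃.1.1.2
  have s23 : Q.sq (u₂ * u₃) ≠ 1 := htr' _ _ hu₃.1.2
  have s123 : Q.sq (u₁ * u₂ * u₃) ≠ 1 := htr' _ _ hu₃.2
  refine hK Q u₁ u₂ u₃ (Q.sq u₁) (Q.sq u₁) s1 s1 ?_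
  rintro x (rfl | rfl | rfl | rfl | rfl | rfl | rfl)
  · exact Or.inl rfl
  · exact Or.inl (eq_of_ne_one_of_card_two hT2 s2 s1)
  · exact Or.inl (eq_of_ne_one_of_card_two hT2 s3 s1)
  · exact Or.inl (eq_of_ne_one_of_card_two hT2 s12 s1)
  · exact Or.inl (eq_of_ne_one_of_card_two hT2 s13 s1)
  · exact Or.inl (eq_of_ne_one_of_card_two hT2 s23 s1)
  · exact Or.inl (eq_of_ne_one_of_card_two hT2 s123 s1)

end Cfsg.Agent.Lib.Helper62.TI3
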